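import Mathlib
import Cfsg.Agent.Lib.Helper31.OTSM.Defs

/-!
# OTSM (S5987), package [NUMEV2M]

Arithmetic, `i` even, `m < i`: a multiple of `i` in `(d - 1 - m, d - 1]` or a half-odd multiple of
`i` in `(d - m, d]` gives a `j` violating `CondEvM`.
-/

set_option autoImplicit false

namespace Cfsg.Agent.Lib.Helper97.OTSM

open Cfsg.Agent.Lib.Helper31.OTSM

theorem pkgNumEv2M : PkgNumEv2M := by
  intro i m d t hi hi2 hm hmi hmd ht h hall
  obtain ⟨i', rfl⟩ : ∃ i', i = 2 * i' := by
    obtain ⟨c, hc⟩ := hi; exact ⟨c, by omega⟩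
  have hs0 : ∀ s : ℕ, 2 * i' * s ≤ m → s = 0 := by
    intro s hs
    by_contra h0
    have h1 : 1 ≤ s := Nat.one_le_iff_ne_zero.mpr h0
    have h2 : 2 * i' * 1 ≤ 2 * i' * s := Nat.mul_le_mul_left _ h1
    omega
  rcases h with ⟨e, he1, he2, ⟨c, rfl⟩⟩ | ⟨e, he1, he2, he3⟩
  · have hc : 1 ≤ c := by
      rcases Nat.eq_zero_or_pos c with rfl | h
      · simp at he1
      · exact h
    have h1 : 2 * i' * (2 * c) = 2 * (2 * i' * c) := by ring
    obtain ⟨s, hs, hs1, hs2⟩ := hall (2 * c) (by omega) (by omega) (by intro h; omega)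
    have hs' := hs0 s hs1
    subst hs'
    have hev : Even (2 * c) := even_two_mul c
    simp only [hev, if_true, mul_zero, Nat.sub_zero] at hs2
    omega
  · have hdiv : 2 * i' / 2 = i' := by omega
    rw [hdiv] at he3
    have he := Nat.div_add_mod e (2 * i')
    rw [he3] at he
    have h1 : 2 * i' * (2 * (e / (2 * i')) + 1) = 2 * e := by
      have : 2 * i' * (2 * (e / (2 * i')) + 1) = 2 * (2 * i' * (e / (2 * i')) + i') := by ring
      rw [this, he]
    obtain ⟨s, hs, hs1, hs2⟩ := hall (2 * (e / (2 * i')) + 1) (by omega) (by omega)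
      (fun _ => odd_two_mul_add_one _)
    have hs' := hs0 s hs1
    subst hs'
    have hodd : ¬ Even (2 * (e / (2 * i')) + 1) := by
      rw [Nat.not_even_iff_odd]; exact odd_two_mul_add_one _
    simp only [hodd, if_false, mul_zero, Nat.sub_zero] at hs2
    omega

end Cfsg.Agent.Lib.Helper97.OTSM
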